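import Cfsg.Agent.S8R.QF1
import Cfsg.Agent.S8R.QF2
import Cfsg.Agent.S8R.QF3

/-! The exceptional case: the normal subgroup of index 4. -/

set_option autoImplicit false

namespace Cfsg.Agent.S8R

variable {G : Type*} [Group G] [Finite G] {ψ : K0 →* G} {s : G}

theorem F4.f5 (h : F4 ψ s) : ∃ H : Subgroup G, F5 ψ s H := by
  obtain ⟨H, h1, h2, h3, h4, h5⟩ := h.trans h.syl0 h.ntj
  exact ⟨H, h, h1, h2, h3, h4, h5, h.nrj, h.fus_of h5 h.nrj⟩

end Cfsg.Agent.S8R
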